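import Cfsg.Agent.H15.NG.Fin
import Cfsg.Agent.H22.MixG.Defs

/-!
# Step 6 of the mixed case, all primes (helper15)
-/

set_option autoImplicit false
set_option linter.unusedSectionVars false

namespace Cfsg.Agent.H15.NG

open Subgroup Cfsg
open Cfsg.Agent.H22.MixG

universe u

/-- **Step 6**: `G5 p`. -/
theorem g5 {p : ℕ} (hk : ∀ (G : Type u) [Group G] [Finite G], HK p G) : G5.{u} p := by
  intro hp _ G _ _ A θ N hK _ hfit
  have : Fact p.Prime := ⟨hp⟩
  exact Hyp.false (p := p) (A := A) (θ := θ) (N := N)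
    ⟨hK.toMixWp.toMixN, hK.comp_bad, hK.comp_sub, hK.comp_good, hfit, hk G⟩

end Cfsg.Agent.H15.NG
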